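import Mathlib
import Cfsg.Agent.Lib.Helper19.KAlt.Defs
import Cfsg.Agent.Lib.Helper79.LW.BrT
import Cfsg.Agent.S0415
import Cfsg.Agent.S0416
import Cfsg.Agent.S0417

/-!
# KALT package [SHN] (S0747): Jordan's degrees of sharply `k`-transitive groups, `HT`/`Triv` form
-/

set_option autoImplicit false

namespace Cfsg.Agent.Lib.Helper37.KAlt

open Cfsg.Agent.Lib.Helper75.LW Cfsg.Agent.Lib.Helper19.KAlt

universe u

theorem pkgShN : PkgShN.{u} := by
  intro α _ _ G k hk4 hkn hT hTr
  haveI : MulAction.IsMultiplyPretransitive G α k :=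
    (Cfsg.Agent.Lib.Helper79.LW.pkgBrT G k).mpr hT
  have hsharp : ∀ x : Fin k ↪ α, MulAction.stabilizer G x = ⊥ := by
    intro x
    rw [eq_bot_iff]
    intro g hg
    rw [MulAction.mem_stabilizer_iff] at hg
    rw [Subgroup.mem_bot]
    have h1 : ∀ i, (g : Equiv.Perm α) (x i) = x i := fun i => by
      have := congrArg (fun e : Fin k ↪ α => e i) hg
      exact this
    have h2 := hTr (Finset.univ.map x) (by simp) g.1 g.2 (by
      intro a ha
      rw [Finset.mem_map] at ha
      obtain ⟨i, -, rfl⟩ := ha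
      exact h1 i)
    exact Subtype.ext h2
  by_cases h4 : k = 4
  · subst h4
    rcases Cfsg.Agent.S0415.result G (by omega) hsharp with h | h | h | h <;> omega
  by_cases h5 : k = 5
  · subst h5
    rcases Cfsg.Agent.S0416.result G (by omega) hsharp with h | h | h | h <;> omega
  rcases Cfsg.Agent.S0417.result G k (by omega) hkn.le hsharp with h | h | h <;> omega

end Cfsg.Agent.Lib.Helper37.KAlt
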