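import Mathlib
import Cfsg.Agent.Lib.Helper19.KAlt.Defs
import Cfsg.Agent.Lib.Helper79.LW.BrT
import Cfsg.Agent.Lib.Helper79.LW.Mono

/-!
# KALT package [SHSMALL] (S0747): degree `k + 1` or `k + 2`
-/

set_option autoImplicit false

namespace Cfsg.Agent.Lib.Helper37.KAlt

open Cfsg.Agent.Lib.Helper75.LW Cfsg.Agent.Lib.Helper19.KAlt

universe u

theorem pkgShSmall : PkgShSmall.{u} := by
  intro α _ _ G k hk4 hkn hn2 hT
  -- `G` is `(n-2)`-transitive, hence contains the alternating group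
  have hT2 : HT G (Fintype.card α - 2) :=
    Cfsg.Agent.Lib.Helper79.LW.pkgMono G (Fintype.card α - 2) k (by omega) hkn.le hT
  have hmt : MulAction.IsMultiplyPretransitive G α (Nat.card α - 2) := by
    rw [Nat.card_eq_fintype_card]
    exact (Cfsg.Agent.Lib.Helper79.LW.pkgBrT G (Fintype.card α - 2)).mpr hT2
  have hA : alternatingGroup α ≤ G := IsMultiplyPretransitive.alternatingGroup_le α G hmt
  -- any `(k+1)`-set works
  obtain ⟨Δ, -, hΔ⟩ := Finset.exists_subset_card_eq (s := (Finset.univ : Finset α))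
    (n := k + 1) (by rw [Finset.card_univ]; omega)
  refine ⟨Δ, hΔ, fun σ hσ => ?_⟩
  refine ⟨Equiv.Perm.ofSubtype σ, hA ?_, fun x => ?_⟩
  · rw [Equiv.Perm.mem_alternatingGroup, Equiv.Perm.sign_ofSubtype]
    exact Equiv.Perm.mem_alternatingGroup.mp hσ
  · exact Equiv.Perm.ofSubtype_apply_coe σ x

end Cfsg.Agent.Lib.Helper37.KAlt
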